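import Mathlib
import Cfsg.Agent.Lib.ModRep.Exist
import Cfsg.Agent.Lib.Chev.Center
import Cfsg.Agent.Lib.Chev.Simple
import Cfsg.Agent.Lib.Chev.Main

/-!
Semisimple classes of the tabulated Chevalley groups with trivial simply connected centre.
-/

set_option autoImplicit false

namespace H64.MR

open H38 Cfsg Cfsg.Lie

theorem chev_card_ss {D : ChevalleyDatum}
    (hD : D ∈ [chevG2, chevB2, chevD4, chevF4, chevE6, chevE7, chevE8])
    {F : Type*} [Field F] [Fintype F] (p : ℕ) [Fact p.Prime] [CharP F p] {d m : ℕ}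
    (hS : Smith (cartanMat D) d m) (hg : Nat.gcd d (Fintype.card F - 1) ^ m = 1) :
    Nat.card {c : ConjClasses (D.group F) //
      ∃ g : D.group F, ConjClasses.mk g = c ∧ (orderOf g).Coprime p} =
      Fintype.card F ^ D.rank := by
  classical
  obtain ⟨R, E, hE⟩ := H38.exists_isMat hD F
  have : Fintype (D.group F) := Fintype.ofFinite _
  have : Nonempty (Fin D.rank) := ⟨⟨0, by have := H38.rank_pos hD; omega⟩⟩
  have hk : (Elts.tor hE.R3).ker = ⊥ := by
    rw [hE.tor_ker, ← Subgroup.card_eq_one, hS.card_ker, Nat.card_units, Nat.card_eq_fintype_card,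
      hg]
  have hc : ∀ c, (Elts.tor hE.grp_R3 c : GL D.Idx F) = Elts.tor hE.R3 c := by
    intro c
    have e : (D.group F).subtype.comp (Elts.tor hE.grp_R3) = Elts.tor hE.R3 := by
      apply MonoidHom.pi_ext
      intro i x
      simp only [MonoidHom.comp_apply, Elts.tor_single, Subgroup.coe_subtype, hE.grp_h]
    exact DFunLike.congr_fun e c
  have hinj : Function.Injective (Elts.tor hE.grp_R3) := by
    intro a b h
    apply (MonoidHom.ker_eq_bot_iff _).mp hk
    rw [← hc, ← hc, h]
  rw [card_regular_classes hE.grp_faith hE.grp_R3 hE.grp_top hinj p, Fintype.card_fin]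

end H64.MR
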