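import Mathlib
import Cfsg.Agent.Lib.ModRep.Blocks
import Cfsg.Agent.Lib.SplitBN.TypeA
import Cfsg.Agent.Lib.GL2Char.SLTable
import Cfsg.Agent.Lib.H85.PRegSep

/-!
The blocks of `SL₂(q)`, `q` odd, in the defining characteristic.
-/

set_option autoImplicit false
set_option linter.unusedSectionVars false

namespace H64.SL2B

open Cfsg H33
open scoped MatrixGroups Classical

variable {F : Type*} [Field F] [Fintype F] {p : ℕ} [hp : Fact p.Prime] [CharP F p]

variable (F) in
/-- the three sets of characters -/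
def T : Fin 3 → Set (IrrCharacter SL(2, F)) :=
  ![{χ | (χ : SL(2, F) → ℂ) 1 = (Fintype.card F : ℂ)},
    {χ | (χ : SL(2, F) → ℂ) (-1) = (χ : SL(2, F) → ℂ) 1 ∧
      (χ : SL(2, F) → ℂ) 1 ≠ (Fintype.card F : ℂ)},
    {χ | (χ : SL(2, F) → ℂ) (-1) = -(χ : SL(2, F) → ℂ) 1}]

lemma neg_one_mem : (-1 : SL(2, F)) ∈ Subgroup.center SL(2, F) :=
  Subgroup.mem_center_iff.2 fun g => by simp

lemma sign (χ : IrrCharacter SL(2, F)) :
    (χ : SL(2, F) → ℂ) (-1) = (χ : SL(2, F) → ℂ) 1 ∨
      (χ : SL(2, F) → ℂ) (-1) = -(χ : SL(2, F) → ℂ) 1 := by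
  obtain ⟨c, hc, h⟩ := H85.irr_central_mul χ.2 neg_one_mem
  have h1 := h 1
  have h2 := h (-1)
  rw [mul_one] at h1
  rw [neg_mul_neg, one_mul, h1] at h2
  have h0 := H6.irr_one_ne_zero χ.2
  have h3 : (c - 1) * (c + 1) = 0 := by
    apply mul_right_cancel₀ h0
    linear_combination -h2
  rcases mul_eq_zero.1 h3 with h | h
  · left; rw [h1, sub_eq_zero.1 h, one_mul]
  · right; rw [h1, eq_neg_of_add_eq_zero_left h, neg_one_mul]

/-- the Steinberg character -/
noncomputable def St (F : Type*) [Field F] [Fintype F] : IrrCharacter SL(2, F) :=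
  ⟨H62.GL2.stS F, H62.GL2.isIrr_stS⟩

lemma T0 : T F 0 = {St F} := by
  ext χ
  constructor
  · intro h
    exact Subtype.ext (H62.GL2.irr_of_deg_q χ.2 h)
  · rintro rfl
    exact H62.GL2.stS_one

lemma St_fact (p : ℕ) [hp : Fact p.Prime] [CharP F p] :
    (charDegree (St F : SL(2, F) → ℂ)).factorization p = (Nat.card SL(2, F)).factorization p := by
  have h1 : charDegree (St F : SL(2, F) → ℂ) = Fintype.card F := by
    change charDegree (H62.GL2.stS F) = _
    simp [charDegree, H62.GL2.stS_one]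
  obtain ⟨n, -, hn⟩ := FiniteField.card F p
  have h2 : 1 < Fintype.card F := Fintype.one_lt_card
  have hd : p ∣ Fintype.card F := by rw [hn]; exact dvd_pow_self _ n.pos.ne'
  have h3 : ¬ p ∣ Fintype.card F - 1 := fun h => by
    have := Nat.dvd_sub hd h
    rw [Nat.sub_sub_self h2.le] at this
    exact hp.out.one_lt.ne' (Nat.dvd_one.1 this)
  have h4 : ¬ p ∣ Fintype.card F + 1 := fun h =>
    hp.out.one_lt.ne' (Nat.dvd_one.1 ((Nat.dvd_add_right hd).1 h))
  rw [h1, H10.card_SL_two, Nat.card_eq_fintype_card, Nat.factorization_mul (by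
      apply Nat.mul_ne_zero <;> omega) (by omega), Nat.factorization_mul (by omega) (by omega)]
  simp [Nat.factorization_eq_zero_of_not_dvd h3, Nat.factorization_eq_zero_of_not_dvd h4]

lemma two_ne (hp2 : p ≠ 2) : (2 : F) ≠ 0 := by
  intro h
  have : ((2 : ℕ) : F) = 0 := by exact_mod_cast h
  rw [CharP.cast_eq_zero_iff F p] at this
  exact hp2 ((Nat.prime_dvd_prime_iff_eq hp.out Nat.prime_two).1 this)

lemma exists_T (χ : IrrCharacter SL(2, F)) : ∃ i, χ ∈ T F i := by
  by_cases h : (χ : SL(2, F) → ℂ) 1 = (Fintype.card F : ℂ)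
  · exact ⟨0, h⟩
  · rcases sign χ with h' | h'
    · exact ⟨1, h', h⟩
    · exact ⟨2, h'⟩

lemma plus_of {χ : IrrCharacter SL(2, F)} {i : Fin 3} (hi : i ≠ 2) (h : χ ∈ T F i) :
    (χ : SL(2, F) → ℂ) (-1) = (χ : SL(2, F) → ℂ) 1 := by
  fin_cases i
  · have h' : χ ∈ T F 0 := h
    rw [T0] at h'
    obtain rfl : χ = St F := h'
    exact H62.GL2.stS_neg_one.trans H62.GL2.stS_one.symm
  · exact h.1
  · exact absurd rfl hi

lemma T_unique {χ : IrrCharacter SL(2, F)} {i j : Fin 3} (hi : χ ∈ T F i) (hj : χ ∈ T F j) :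
    i = j := by
  have h0 := H6.irr_one_ne_zero χ.2
  have key : ∀ {a : Fin 3}, a ≠ 2 → χ ∈ T F a → χ ∉ T F 2 := fun ha h h2 => by
    have h3 : (χ : SL(2, F) → ℂ) (-1) = -(χ : SL(2, F) → ℂ) 1 := h2
    rw [plus_of ha h] at h3
    exact h0 (by linear_combination h3 / 2)
  by_cases h1 : i = 2
  · by_contra h
    exact key (fun e => h (h1.trans e.symm)) hj (h1 ▸ hi)
  by_cases h2 : j = 2
  · exact absurd (h2 ▸ hj) (key h1 hi)
  fin_cases i <;> fin_cases j <;> first | rfl | exact absurd rfl h1 | exact absurd rfl h2 | skip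
  · exact absurd hi hj.2
  · exact absurd hj hi.2

lemma T_nonempty (hp2 : p ≠ 2) (i : Fin 3) : (T F i).Nonempty := by
  fin_cases i
  · exact ⟨St F, H62.GL2.stS_one⟩
  · refine ⟨⟨fun _ => 1, H6.isIrrCharacter_one⟩, rfl, ?_⟩
    have h2 : 1 < Fintype.card F := Fintype.one_lt_card
    change (1 : ℂ) ≠ _
    exact_mod_cast h2.ne
  · by_contra h
    have hne : (-1 : SL(2, F)) ≠ 1 := fun e => by
      have := congrArg (fun g : SL(2, F) => g.1 0 0) e
      simp at this
      exact two_ne (F := F) hp2 (by linear_combination -this)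
    have h1 := H6.sum_irr_one_mul hne
    have h2 := H6.sum_irr_one_sq (G := SL(2, F))
    have h3 : ∀ χ : IrrCharacter SL(2, F), (χ : SL(2, F) → ℂ) (-1) = (χ : SL(2, F) → ℂ) 1 :=
      fun χ => (sign χ).resolve_right fun e => h ⟨χ, e⟩
    simp only [h3, ← sq] at h1
    rw [h1] at h2
    exact H7.card_ne_zero' _ h2.symm

variable {M : Ideal AlgInt}

lemma centralChar_neg_one (χ : SL(2, F) → ℂ) : centralChar χ (-1) = χ (-1) / χ 1 := by
  have : Subgroup.centralizer ({-1} : Set SL(2, F)) = ⊤ := by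
    rw [eq_top_iff]; intro g _
    rw [Subgroup.mem_centralizer_singleton_iff]; simp
  rw [centralChar, this, Subgroup.index_top, Nat.cast_one, one_mul]

lemma block_sub (hp2 : p ≠ 2) (hM : IsPModular p M) {χ : IrrCharacter SL(2, F)} {i : Fin 3}
    (hi : χ ∈ T F i) : blockOf M (χ : SL(2, F) → ℂ) ⊆ T F i := by
  haveI := isMaximal_of hM
  have h2 : ¬ MemLocalIdeal M ((2 : ℕ) : ℂ) := by
    rw [memLocalIdeal_natCast_iff hM]
    exact fun h => hp2 ((Nat.prime_dvd_prime_iff_eq hp.out Nat.prime_two).1 h)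
  have hSt := blockOf_eq_singleton hM (St_fact (F := F) p)
  intro ψ hψ
  have h0 := H6.irr_one_ne_zero χ.2
  have h0' := H6.irr_one_ne_zero ψ.2
  have hs : SameBlock M (χ : SL(2, F) → ℂ) ψ := hψ
  have h1 := hs (-1)
  rw [centralChar_neg_one, centralChar_neg_one] at h1
  fin_cases i
  · have h' : χ ∈ T F 0 := hi
    change ψ ∈ T F 0
    rw [T0] at h' ⊢
    obtain rfl : χ = St F := h'
    rwa [hSt] at hψ
  · refine ⟨(sign ψ).resolve_right fun e => h2 ?_, fun e => hi.2 ?_⟩
    · rw [hi.1, e, neg_div, div_self h0, div_self h0'] at h1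
      convert h1 using 1; norm_num
    · have h' : ψ ∈ T F 0 := e
      rw [T0] at h'
      obtain rfl : ψ = St F := h'
      have : χ ∈ blockOf M (St F : SL(2, F) → ℂ) := sameBlock_symm hs
      rw [hSt, ← T0] at this
      exact this
  · refine (sign ψ).resolve_left fun e => h2 ?_
    have hi' : (χ : SL(2, F) → ℂ) (-1) = -(χ : SL(2, F) → ℂ) 1 := hi
    rw [hi', e, neg_div, div_self h0, div_self h0'] at h1
    convert memLocalIdeal_neg h1 using 1; norm_num

lemma card_blocks (hp2 : p ≠ 2) (hM : IsPModular p M) :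
    Nat.card {B : Set (IrrCharacter SL(2, F)) // IsPBlock M B} = 3 := by
  have : Fintype (Matrix.SpecialLinearGroup (Fin (1 + 1)) F) := Fintype.ofFinite _
  have h := H64.MR.card_blocks (H64.TA.faith (m := 1) (K := F)) H64.TA.r3 H64.TA.top hM
    H64.TA.connected
  rw [H10.card_center_SL, Fintype.card_fin] at h
  refine h.trans ?_
  have hodd : Fintype.card F % 2 = 1 := FiniteField.odd_card_of_char_ne_two (by
    rw [ringChar.eq F p]; exact hp2)
  rw [Nat.card_eq_fintype_card, Nat.gcd_eq_left (by omega)]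

lemma block_eq (hp2 : p ≠ 2) (hM : IsPModular p M) {χ : IrrCharacter SL(2, F)} {i : Fin 3}
    (hi : χ ∈ T F i) : blockOf M (χ : SL(2, F) → ℂ) = T F i := by
  haveI := isMaximal_of hM
  choose r hr using T_nonempty (F := F) hp2
  let f : Fin 3 → {B : Set (IrrCharacter SL(2, F)) // IsPBlock M B} :=
    fun j => ⟨_, isPBlock_blockOf (r j)⟩
  have hf : Function.Injective f := fun j k e => by
    have e' : blockOf M (r j : SL(2, F) → ℂ) = blockOf M (r k : SL(2, F) → ℂ) :=
      congrArg Subtype.val e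
    exact T_unique (hr j) (block_sub hp2 hM (hr k) (e' ▸ mem_blockOf_self (r j)))
  have hfin : Finite {B : Set (IrrCharacter SL(2, F)) // IsPBlock M B} :=
    Nat.finite_of_card_ne_zero (by rw [card_blocks hp2 hM]; norm_num)
  have hs : Function.Surjective f :=
    (hf.bijective_of_nat_card_le (by rw [card_blocks hp2 hM]; simp)).2
  have key : ∀ {ψ : IrrCharacter SL(2, F)}, ψ ∈ T F i →
      blockOf M (ψ : SL(2, F) → ℂ) = blockOf M (r i : SL(2, F) → ℂ) := fun {ψ} hψ => by
    obtain ⟨j, hj⟩ := hs ⟨_, isPBlock_blockOf ψ⟩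
    have e' : blockOf M (r j : SL(2, F) → ℂ) = blockOf M (ψ : SL(2, F) → ℂ) :=
      congrArg Subtype.val hj
    obtain rfl : j = i := T_unique (hr j) (block_sub hp2 hM hψ (e' ▸ mem_blockOf_self (r j)))
    exact e'.symm
  refine (block_sub hp2 hM hi).antisymm fun ψ hψ => ?_
  rw [key hi, ← key hψ]
  exact mem_blockOf_self ψ

lemma isPBlock_iff (hp2 : p ≠ 2) (hM : IsPModular p M) (B : Set (IrrCharacter SL(2, F))) :
    IsPBlock M B ↔ ∃ i, B = T F i := by
  constructor
  · rintro ⟨χ, rfl⟩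
    obtain ⟨i, hi⟩ := exists_T χ
    exact ⟨i, block_eq hp2 hM hi⟩
  · rintro ⟨i, rfl⟩
    obtain ⟨χ, hχ⟩ := T_nonempty (F := F) hp2 i
    exact ⟨χ, (block_eq hp2 hM hχ).symm⟩

lemma defect (hp2 : p ≠ 2) (hM : IsPModular p M) {i : Fin 3} (hi : i ≠ 0)
    (P : Sylow p SL(2, F)) : IsDefectGroup p M (T F i) (P : Subgroup SL(2, F)) := by
  haveI := isMaximal_of hM
  have : Fintype (Matrix.SpecialLinearGroup (Fin (1 + 1)) F) := Fintype.ofFinite _
  have hB := (isPBlock_iff (F := F) hp2 hM _).2 ⟨i, rfl⟩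
  rw [sylow_isDefectGroup_iff hM hB]
  refine (H64.MR.defect_zero_or_full (H64.TA.faith (m := 1) (K := F)) H64.TA.r3 H64.TA.top hM
    H64.TA.connected hB).resolve_left fun h0 => hi ?_
  have h1 := H64.MR.block_eq_of_defect_zero (H64.TA.faith (m := 1) (K := F)) H64.TA.r3 H64.TA.top
    hM hB (isPBlock_blockOf (St F)) h0
    ((blockDefect_eq_zero_iff hM (isPBlock_blockOf (St F)) (mem_blockOf_self _)).2 (St_fact p))
  exact T_unique (h1 ▸ mem_blockOf_self (St F)) (H62.GL2.stS_one : St F ∈ T F 0)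

end H64.SL2B
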